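import Cfsg.Agent.H425.KS.SLTwo
import Cfsg.Agent.H392.KKL.X2a

/-!
# S4577: the `SL₂` layer of `E₇(q)`, `E₈(q)`, `E₆(q)`, `F₄(q)` (helper425)

* `act_rho` : the centralizer of the classical involution `zS [i0]` acts on `phi i0` through `GL₂(F)`;
* `tl_E7`, `tl_E8` : `TL D t (J t)` for the equivariant function `J` of `H392.KKL.x2a_E7`, `x2a_E8`.
-/

set_option autoImplicit false
set_option linter.unusedSectionVars false

namespace Cfsg.Agent.H425.KS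

open CoxeterSystem
open Cfsg Cfsg.Lie Cfsg.Lie.ChevalleyDatum
open Cfsg.Agent.ChevalleyStructure Cfsg.Agent.ChevalleyStructure.Elts Cfsg.Agent.ChevalleyStructure.CoxeterGeom
  Cfsg.Agent.ChevalleyStructure.RootVec Cfsg.Agent.ChevalleyStructure.RootVecTab
  Cfsg.Agent.ChevalleyStructure.CoxeterGeomTypes
open Cfsg.Agent.Tits.Roots Cfsg.Agent.Nodes.Reps Cfsg.Agent.Nodes.BNOf Cfsg.Agent.Nodes.RGDChev
  Cfsg.Agent.Nodes.Bruhat Cfsg.Agent.Nodes.RGDLib
open Cfsg.Agent.OddHalf.LongSL Cfsg.Agent.OddHalf.LongSL.Chev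
open Cfsg.Agent.KFacts.RgdChevCoord (TT XX xc coe_xc coords)
open Cfsg.Agent.GenExc Cfsg.Agent.GenExc.Chev
open Cfsg.Agent.H557.LrTor Cfsg.Agent.H557.LrOrb Cfsg.Agent.H557.LrIso Cfsg.Agent.H557.LrChev Cfsg.Agent.H557.LrRho
  Cfsg.Agent.H557.LrData
open Cfsg.Agent.H392.KKL
open Cfsg.Agent.H613.KS (Cfg)
open Cfsg.Agent.H648.KS (At TL)
open Cfsg.Agent.H40.KKL (Cz)
open scoped MatrixGroups

section Rho

variable {D : ChevalleyDatum} {l m : ℕ} {M : CoxeterMatrix (Fin l)} (hp : IsType D l M) {K : Type} [Field K]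
  {W : Type*} [Group W] (cs : CoxeterSystem M W) {f : Fin (m + 1) ↪ Fin l} {S Jc Js : List (Fin l)} {rho : ℕ}
  {i0 : Fin l} {ω : List (Fin l)} (H : RhoD D f S Jc Js rho i0 ω) [Fintype K] (p : ℕ) [Fact p.Prime] [CharP K p]
  (hZ : Subgroup.center ↥(D.group K) = ⊥)

include hp cs H p hZ in
/-- the centralizer of the classical involution acts through `GL₂(K)` -/
theorem act_rho (h2 : (2 : K) ≠ 0) (ho : ∃ r < D.nroots, evB D [i0] r = false) :
    ∀ c : ↥(D.group K), c * zS hp K [i0] = zS hp K [i0] * c → Act (phi hp K i0) c := by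
  have e0 : zS hp K [i0] = phi hp K i0 (-1) := by rw [zS_cons, zS_nil, mul_one]
  have h1 : phi hp K i0 (-1) ≠ 1 := by rw [← e0]; exact zS_ne_one hp h2 ho
  have hQ : Function.Injective (phi hp K i0) := inj_of_neg h2 h1
  intro c hc
  obtain ⟨k₀, hk₀, hz⟩ := H.exists_conj hp cs p hZ
  have ha : rep cs hp.isCartan (cs.wordProd ω) (sr i0) = vec D l rho := by rw [rep_word cs hp.isCartan, H.word]
  have hc' : k₀ * c * k₀⁻¹ ∈ Subgroup.centralizer {y | ∃ T ∈ [S], y = zS hp K T} := by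
    rw [set_eq, Subgroup.mem_centralizer_iff]
    intro y hy
    rw [Set.mem_singleton_iff] at hy
    rw [hy, ← hz]
    calc _ = k₀ * (zS hp K [i0] * c) * k₀⁻¹ := by group
      _ = _ := by rw [← hc]; group
  have h3 := act_cent hp cs p hQ h2 hk₀ [S] (by rw [ha]; exact comm_of_iso hp cs h2 [S] (H.iso hp cs))
    (by rw [ha]; exact stab_of_iso hp cs p h2 [S] (H.iso hp cs)) hc'
  have e : k₀⁻¹ * (k₀ * c * k₀⁻¹) * k₀ = c := by group
  rwa [e] at h3

end Rho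

section

variable {F : Type} [Field F] [Fintype F]

theorem act_E7 (h2 : (2 : F) ≠ 0) : ∀ c : ↥(chevE7.group F), c * zS isType_E7 F [0] = zS isType_E7 F [0] * c →
    Act (phi isType_E7 F 0) c := by
  obtain ⟨p, hpp, hpc⟩ := exists_prime F
  have : Fact p.Prime := ⟨hpp⟩
  exact act_rho isType_E7 (CoxeterMatrix.E₇).toCoxeterSystem rhoE7 p (center_eq_bot (S1054.result _ (by simp))) h2
    (by decide +kernel)

theorem act_E8 (h2 : (2 : F) ≠ 0) : ∀ c : ↥(chevE8.group F), c * zS isType_E8 F [7] = zS isType_E8 F [7] * c →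
    Act (phi isType_E8 F 7) c := by
  obtain ⟨p, hpp, hpc⟩ := exists_prime F
  have : Fact p.Prime := ⟨hpp⟩
  exact act_rho isType_E8 (CoxeterMatrix.E₈).toCoxeterSystem rhoE8 p (center_eq_bot (S1054.result _ (by simp))) h2
    (by decide +kernel)

/-- **the `SL₂` layer of `E₇(q)`** -/
theorem tl_E7 (h2 : (2 : F) ≠ 0) {J : ↥(chevE7.group F) → Subgroup ↥(chevE7.group F)}
    (hJ1 : J (zS isType_E7 F [0]) = (phi isType_E7 F 0).range)
    (hJ3 : ∀ y t g : ↥(chevE7.group F), y * g * y⁻¹ ∈ J (y * t * y⁻¹) ↔ g ∈ J t)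
    {D : Subgroup ↥(chevE7.group F)} {x : ↥(chevE7.group F)} (hc : Cfg D x) {t : ↥(chevE7.group F)} (ht : t ∈ D)
    (ht1 : t ≠ 1) (hcl : IsConj (zS isType_E7 F [0]) t) {s : ↥(chevE7.group F)} (hs : s ∈ D)
    (hns : ¬ Cz (J t) s) : TL D t (J t) :=
  tl_conj h2 (by rw [zS_cons, zS_nil, mul_one]) (act_E7 h2) hJ1 hJ3 hc ht ht1 hcl hs hns

/-- **the `SL₂` layer of `E₈(q)`** -/
theorem tl_E8 (h2 : (2 : F) ≠ 0) {J : ↥(chevE8.group F) → Subgroup ↥(chevE8.group F)}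
    (hJ1 : J (zS isType_E8 F [7]) = (phi isType_E8 F 7).range)
    (hJ3 : ∀ y t g : ↥(chevE8.group F), y * g * y⁻¹ ∈ J (y * t * y⁻¹) ↔ g ∈ J t)
    {D : Subgroup ↥(chevE8.group F)} {x : ↥(chevE8.group F)} (hc : Cfg D x) {t : ↥(chevE8.group F)} (ht : t ∈ D)
    (ht1 : t ≠ 1) (hcl : IsConj (zS isType_E8 F [7]) t) {s : ↥(chevE8.group F)} (hs : s ∈ D)
    (hns : ¬ Cz (J t) s) : TL D t (J t) :=
  tl_conj h2 (by rw [zS_cons, zS_nil, mul_one]) (act_E8 h2) hJ1 hJ3 hc ht ht1 hcl hs hns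

end

end Cfsg.Agent.H425.KS
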